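import Cfsg.Agent.Arith.Zsigmondy

/-!
# Bounds for cyclotomic values and Euler's totient
-/

set_option autoImplicit false

namespace Cfsg.Agent.PrimPart

open Polynomial ArithmeticFunction

theorem le_totient_sq (n : ℕ) : n ≤ 2 * n.totient ^ 2 ∧ (Odd n → n ≤ n.totient ^ 2) := by
  induction n using Nat.recOnPrimeCoprime with
  | zero => simp
  | prime_pow p k hp =>
    rcases k with - | k
    · simp
    rw [Nat.totient_prime_pow_succ hp]
    have h2 := hp.two_le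
    have hpk : 1 ≤ p ^ k := Nat.one_le_pow _ _ hp.pos
    have hodd : Odd (p ^ (k + 1)) → p ^ (k + 1) ≤ (p ^ k * (p - 1)) ^ 2 := by
      intro ho
      have h3 : p ≠ 2 := by rintro rfl; simp [Nat.odd_pow_iff, Nat.odd_iff] at ho
      obtain ⟨t, rfl⟩ : ∃ t, p = t + 3 := ⟨p - 3, by omega⟩
      rw [pow_succ, mul_pow]
      refine Nat.mul_le_mul (Nat.le_self_pow two_ne_zero _) ?_
      rw [show t + 3 - 1 = t + 2 by omega]
      nlinarith
    refine ⟨?_, hodd⟩
    rcases eq_or_ne p 2 with rfl | h3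
    · rw [pow_succ]
      calc 2 ^ k * 2 ≤ (2 ^ k) ^ 2 * 2 := Nat.mul_le_mul_right _ (Nat.le_self_pow two_ne_zero _)
        _ = _ := by ring
    · exact (hodd ((hp.odd_of_ne_two h3).pow)).trans (Nat.le_mul_of_pos_left _ two_pos)
  | coprime a b ha hb hab iha ihb =>
    rw [Nat.totient_mul hab, mul_pow]
    refine ⟨?_, fun ho => ?_⟩
    · rcases Nat.even_or_odd a with hea | hoa
      · have hob : Odd b := by
          rw [← Nat.not_even_iff_odd]
          intro heb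
          exact Nat.not_coprime_of_dvd_of_dvd one_lt_two hea.two_dvd heb.two_dvd hab
        rw [← mul_assoc]
        exact Nat.mul_le_mul iha.1 (ihb.2 hob)
      · rw [← mul_assoc, mul_comm 2, mul_assoc]
        exact Nat.mul_le_mul (iha.2 hoa) ihb.1
    · rw [Nat.odd_mul] at ho
      exact Nat.mul_le_mul (iha.2 ho.1) (ihb.2 ho.2)

theorem quarter_le_prod (x : ℝ) (h0 : 0 ≤ x) (h1 : x ≤ 1 / 2) (N : ℕ) (hN : 1 ≤ N) :
    1 / 4 + (1 / 2 : ℝ) ^ (N + 1) ≤ ∏ b ∈ Finset.Icc 1 N, (1 - x ^ b) := by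
  induction N, hN using Nat.le_induction with
  | base => simp; linarith
  | succ N hN ih =>
    rw [Finset.prod_Icc_succ_top (by omega)]
    have h2 : x ^ (N + 1) ≤ (1 / 2 : ℝ) ^ (N + 1) := pow_le_pow_left₀ h0 h1 _
    have h3 : (1 / 2 : ℝ) ^ (N + 1) ≤ 1 / 4 :=
      (pow_le_pow_of_le_one (by norm_num) (by norm_num) (by omega : 2 ≤ N + 1)).trans (by norm_num)
    have h4 : (0 : ℝ) ≤ (1 / 2 : ℝ) ^ (N + 1) := by positivity
    calc 1 / 4 + (1 / 2 : ℝ) ^ (N + 1 + 1) = 1 / 4 + (1 / 2 : ℝ) ^ (N + 1) / 2 := by rw [pow_succ _ (N + 1)]; ring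
      _ ≤ (1 / 4 + (1 / 2 : ℝ) ^ (N + 1)) * (1 - x ^ (N + 1)) := by nlinarith
      _ ≤ _ := mul_le_mul_of_nonneg_right ih (by linarith)

/-- `q ^ φ(n) ≤ 4 Φ_n(q)`. -/
theorem pow_totient_le_cyclotomic {q : ℕ} (hq : 2 ≤ q) {n : ℕ} (hn : 0 < n) :
    q ^ n.totient ≤ 4 * ((cyclotomic n ℤ).eval (q : ℤ)).natAbs := by
  set Φ : ℕ → ℕ := fun d => ((cyclotomic d ℤ).eval (q : ℤ)).natAbs with hΦ
  have hΦpos : ∀ d, 0 < Φ d := fun d => Cfsg.Agent.Arith.natAbs_cyclotomic_eval_pos hq d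
  have hq0 : (0 : ℝ) < q := by positivity
  set x : ℝ := (q : ℝ)⁻¹ with hx
  have hx0 : 0 < x := inv_pos.2 hq0
  have hx1 : x ≤ 1 / 2 := by
    rw [hx, one_div]; exact inv_anti₀ two_pos (by exact_mod_cast hq)
  have hxlt : ∀ b, 0 < b → x ^ b ≤ 1 / 2 := fun b hb =>
    (pow_le_of_le_one hx0.le (by linarith) hb.ne').trans hx1
  let f : ℕ → ℝ := fun d => (Φ d : ℝ) * x ^ d.totient
  let g : ℕ → ℝ := fun d => if d = 0 then 1 else 1 - x ^ d
  have hf : ∀ m, 0 < m → ∏ d ∈ m.divisors, f d = g m := by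
    intro m hm
    show ∏ d ∈ m.divisors, (Φ d : ℝ) * x ^ d.totient = _
    rw [Finset.prod_mul_distrib, Finset.prod_pow_eq_pow_sum, Nat.sum_totient, ← Nat.cast_prod,
      ← Cfsg.Agent.Arith.pow_sub_one_eq_prod_cyclotomic (by omega : 0 < q) hm,
      Nat.cast_sub (Nat.one_le_pow _ _ (by omega)), Nat.cast_pow, Nat.cast_one, sub_mul, one_mul,
      ← mul_pow, hx, mul_inv_cancel₀ hq0.ne', one_pow]
    simp [g, hm.ne', hx]
  have hinv := (prod_eq_iff_prod_pow_moebius_eq_of_nonzero (f := f) (g := g)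
    (fun m _ => mul_ne_zero (Nat.cast_ne_zero.2 (hΦpos m).ne') (pow_ne_zero _ hx0.ne'))
    (fun m hm => by
      simp only [g, if_neg hm.ne']
      have := hxlt m hm
      intro hh
      linarith)).1 hf n hn
  have hmain : ∏ y ∈ n.divisorsAntidiagonal, (1 - x ^ y.2) ≤ f n := by
    rw [← hinv]
    refine Finset.prod_le_prod (fun y hy => ?_) (fun y hy => ?_)
    all_goals
      obtain ⟨h1, h2⟩ := Nat.mem_divisorsAntidiagonal.1 hy
      have hy0 : 0 < y.2 := by
        refine Nat.pos_of_ne_zero fun h => h2 ?_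
        rw [← h1, h, mul_zero]
      have := hxlt y.2 hy0
      have hpos : (0 : ℝ) < x ^ y.2 := pow_pos hx0 _
    · linarith
    · simp only [g, if_neg hy0.ne']
      rcases moebius_eq_or y.1 with h | h | h
      · rw [h, zpow_zero]; linarith
      · rw [h, zpow_one]
      · rw [h, zpow_neg_one]
        exact (le_of_lt (by linarith : 1 - x ^ y.2 < 1)).trans (one_le_inv₀ (by linarith) |>.2 (by linarith))
  have hprod : ∏ b ∈ Finset.Icc 1 n, (1 - x ^ b) ≤ ∏ y ∈ n.divisorsAntidiagonal, (1 - x ^ y.2) := by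
    rw [Nat.prod_divisorsAntidiagonal' (fun _ b => 1 - x ^ b)]
    have hsub : n.divisors ⊆ Finset.Icc 1 n := fun b hb => by
      obtain ⟨h1, h2⟩ := Nat.mem_divisors.1 hb
      exact Finset.mem_Icc.2 ⟨Nat.pos_of_dvd_of_pos h1 hn, Nat.le_of_dvd hn h1⟩
    rw [← Finset.prod_sdiff hsub]
    refine mul_le_of_le_one_left (Finset.prod_nonneg fun b hb => ?_)
      (Finset.prod_le_one (fun b hb => ?_) fun b _ => by linarith [pow_nonneg hx0.le b])
    · have := hxlt b (Nat.pos_of_mem_divisors hb); linarith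
    · have := hxlt b (Finset.mem_Icc.1 (Finset.mem_sdiff.1 hb).1).1; linarith
  have h4 : (1 / 4 : ℝ) ≤ f n := by
    refine le_trans ?_ ((quarter_le_prod x hx0.le hx1 n hn).trans (hprod.trans hmain))
    linarith [pow_nonneg (by norm_num : (0 : ℝ) ≤ 1 / 2) (n + 1)]
  have h5 : (q : ℝ) ^ n.totient ≤ 4 * (Φ n : ℝ) := by
    have h6 := mul_le_mul_of_nonneg_right h4 (pow_nonneg hq0.le n.totient)
    simp only [f] at h6
    rw [mul_assoc, ← mul_pow, hx, inv_mul_cancel₀ hq0.ne', one_pow, mul_one] at h6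
    linarith
  exact_mod_cast h5

end Cfsg.Agent.PrimPart
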