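import Mathlib

/-!
# Small cases for primitive divisors of `q ^ e - 1`
-/

set_option autoImplicit false
set_option maxRecDepth 10000

namespace Cfsg.Agent.PrimPart

theorem totient_table : ∀ e < 513, Nat.totient e ≤ 16 → e ≤ 60 := by decide +kernel

def witnesses : List (ℕ × ℕ × ℕ) :=
  [(3, 3, 13), (5, 3, 31), (6, 3, 43), (7, 3, 19), (8, 3, 73), (9, 3, 91), (4, 4, 17), (5, 4, 13), (6, 4, 37), (7, 4, 25), (8, 4, 65), (2, 5, 31), (3, 5, 121), (6, 6, 31), (7, 6, 43), (8, 6, 19), (9, 6, 73), (10, 6, 91), (11, 6, 37), (12, 6, 133), (2, 7, 127), (3, 8, 41), (2, 9, 73), (3, 10, 61), (4, 10, 41), (3, 12, 73), (4, 12, 241), (2, 14, 43), (3, 14, 547), (2, 15, 151), (2, 16, 257), (2, 22, 683), (2, 24, 241), (2, 30, 331)]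

def candidates : List (ℕ × ℕ) :=
  [(2, 3), (3, 3), (4, 3), (5, 3), (6, 3), (7, 3), (8, 3), (9, 3), (2, 4), (3, 4), (4, 4), (5, 4), (6, 4), (7, 4), (8, 4), (2, 5), (3, 5), (2, 6), (3, 6), (4, 6), (5, 6), (6, 6), (7, 6), (8, 6), (9, 6), (10, 6), (11, 6), (12, 6), (2, 7), (2, 8), (3, 8), (2, 9), (2, 10), (3, 10), (4, 10), (2, 12), (3, 12), (4, 12), (2, 14), (3, 14), (2, 15), (2, 16), (2, 18), (2, 20), (2, 22), (2, 24), (2, 30)]

theorem witness_spec : ∀ w ∈ witnesses, w.2.2 ∣ w.1 ^ w.2.1 - 1 ∧ 3 * w.2.1 + 1 ≤ w.2.2 ∧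
    ∀ i < w.2.1, 1 ≤ i → Nat.Coprime w.2.2 (w.1 ^ i - 1) := by decide +kernel

theorem candidates_split : ∀ c ∈ candidates,
    c ∈ [(2, 6), (2, 4), (2, 10), (2, 12), (2, 18), (3, 4), (3, 6), (5, 6), (2, 3), (2, 8), (2, 20), (4, 3), (4, 6)]
      ∨ c ∈ witnesses.map fun w => (w.1, w.2.1) := by decide +kernel

theorem candidates_bool : ((List.range 61).all fun e => (List.range 18).all fun r =>
    !(decide (3 ≤ e) && decide (e % r = 0) && decide (r.Prime)) ||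
      (List.range 100).all fun q =>
        !(decide (2 ≤ q) && decide (q ^ Nat.totient e ≤ 4 * r * (2 * e + 1))) ||
          candidates.contains (q, e)) = true := by decide +kernel

theorem candidates_complete {e r q : ℕ} (he : e < 61) (he3 : 3 ≤ e) (hr : r < 18) (hre : r ∣ e)
    (hrp : r.Prime) (hq : q < 100) (hq2 : 2 ≤ q)
    (h : q ^ Nat.totient e ≤ 4 * r * (2 * e + 1)) : (q, e) ∈ candidates := by
  have h1 := List.all_eq_true.1 (List.all_eq_true.1 candidates_bool e (List.mem_range.2 he)) r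
    (List.mem_range.2 hr)
  simp only [he3, Nat.mod_eq_zero_of_dvd hre, hrp, decide_true, Bool.and_self, Bool.not_true,
    Bool.false_or] at h1
  have h2 := List.all_eq_true.1 h1 q (List.mem_range.2 hq)
  simp only [hq2, h, decide_true, Bool.and_self, Bool.not_true, Bool.false_or,
    List.contains_iff_mem] at h2
  exact h2

/-- The thirteen exceptions, with the primitive part. -/
theorem exceptions_spec :
  ∀ w ∈ [(2, 6, 1), (2, 4, 5), (2, 10, 11), (2, 12, 13), (2, 18, 19), (3, 4, 5), (3, 6, 7), (5, 6, 7), (2, 3, 7), (2, 8, 17), (2, 20, 41), (4, 3, 7), (4, 6, 13)],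
    w.2.2 ≤ 2 * w.2.1 + 1 ∧ w.2.2 ∣ w.1 ^ w.2.1 - 1 ∧ 0 < w.2.2 ∧
      (w.1 ^ w.2.1 - 1) / w.2.2 ∣ ∏ i ∈ Finset.Icc 1 (w.2.1 - 1), (w.1 ^ i - 1) := by decide +kernel

end Cfsg.Agent.PrimPart
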